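import Mathlib
import Cfsg.Prelude.Def_TwoFusion
set_option linter.all false

-- part: ClosedAlt/Base
section
/-!
# Strongly closed subgroups: conjugates (helper52, S1252)

`D A` : the elements of `G` conjugate to an element of `A`.  If `A` is strongly closed in the Sylow 2-subgroup `S` then
`D A` is closed under products inside 2-subgroups, and `D A ∩ S = A`.
-/

set_option autoImplicit false

namespace Cfsg.Agent.ClosedAlt

variable {G : Type*} [Group G]

/-- the conjugates of the elements of `A` -/
def D (A : Subgroup G) : Set G := {x | ∃ g : G, g * x * g⁻¹ ∈ A}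

theorem mem_D {A : Subgroup G} {x : G} : x ∈ D A ↔ ∃ g : G, g * x * g⁻¹ ∈ A := Iff.rfl

theorem le_D {A : Subgroup G} {x : G} (hx : x ∈ A) : x ∈ D A := ⟨1, by simpa using hx⟩

theorem one_mem_D {A : Subgroup G} : (1 : G) ∈ D A := le_D A.one_mem

theorem D_conj {A : Subgroup G} {x : G} (hx : x ∈ D A) (g : G) : g * x * g⁻¹ ∈ D A := by
  obtain ⟨k, hk⟩ := hx
  refine ⟨k * g⁻¹, ?_⟩
  have e : k * g⁻¹ * (g * x * g⁻¹) * (k * g⁻¹)⁻¹ = k * x * k⁻¹ := by group
  rwa [e]

variable {S : Subgroup G} {A : Subgroup G}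

theorem conj_mem_of_D (hA : Cfsg.IsStronglyClosed A S) {x g : G} (hx : x ∈ D A) (hg : g * x * g⁻¹ ∈ S) :
    g * x * g⁻¹ ∈ A := by
  obtain ⟨k, hk⟩ := hx
  have e : g * x * g⁻¹ = (g * k⁻¹) * (k * x * k⁻¹) * (g * k⁻¹)⁻¹ := by group
  rw [e]
  apply hA.2 _ hk
  rwa [← e]

theorem mem_of_D (hA : Cfsg.IsStronglyClosed A S) {x : G} (hx : x ∈ D A) (hS : x ∈ S) : x ∈ A := by
  have h := conj_mem_of_D hA (g := 1) hx (by simpa using hS)
  simpa using h

/-- products inside 2-subgroups -/
theorem mul_mem_D [Finite G] {p : ℕ} [Fact p.Prime] {S : Sylow p G} (hA : Cfsg.IsStronglyClosed A (S : Subgroup G))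
    {x y : G} (hx : x ∈ D A) (hy : y ∈ D A) {T : Subgroup G} (hT : IsPGroup p T) (hxT : x ∈ T) (hyT : y ∈ T) :
    x * y ∈ D A := by
  obtain ⟨P, hP⟩ := hT.exists_le_sylow
  obtain ⟨g, hg⟩ := MulAction.exists_smul_eq G P S
  have key : ∀ t ∈ T, g * t * g⁻¹ ∈ (S : Subgroup G) := by
    intro t ht
    rw [← hg]
    exact ⟨t, hP ht, rfl⟩
  refine ⟨g, ?_⟩
  have e : g * (x * y) * g⁻¹ = (g * x * g⁻¹) * (g * y * g⁻¹) := by group
  rw [e]
  exact A.mul_mem (conj_mem_of_D hA hx (key x hxT)) (conj_mem_of_D hA hy (key y hyT))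

/-- `⟨x, u⟩` is a `p`-group if `u` normalises `⟨x⟩` -/
theorem isPGroup_sup [Finite G] {p : ℕ} {x u : G} (hx : IsPGroup p (Subgroup.zpowers x))
    (hu : IsPGroup p (Subgroup.zpowers u)) (h : u * x * u⁻¹ ∈ Subgroup.zpowers x) :
    IsPGroup p (Subgroup.zpowers x ⊔ Subgroup.zpowers u : Subgroup G) := by
  apply IsPGroup.to_sup_of_normal_left' hx hu
  rw [Subgroup.zpowers_le]
  apply Subgroup.mem_normalizer_fintype
  intro n hn
  obtain ⟨k, rfl⟩ := Subgroup.mem_zpowers_iff.1 hn
  have e : u * x ^ k * u⁻¹ = (u * x * u⁻¹) ^ k := by rw [conj_zpow]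
  rw [e]
  exact Subgroup.zpow_mem _ h k

theorem isPGroup_two {x : G} (hx : x * x = 1) : IsPGroup 2 (Subgroup.zpowers x) := by
  rintro ⟨y, hy⟩
  obtain ⟨k, rfl⟩ := Subgroup.mem_zpowers_iff.1 hy
  refine ⟨1, Subtype.ext ?_⟩
  show (x ^ k) ^ (2 ^ 1) = 1
  rw [pow_one, ← zpow_natCast, ← zpow_mul, mul_comm, zpow_mul, zpow_natCast, pow_two, hx, one_zpow]

end Cfsg.Agent.ClosedAlt
end

-- part: ClosedAlt/Invert
section
/-!
# Every even permutation of 2-power order is a product of two even involutions inverting it (helper52, S1252)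
-/

set_option autoImplicit false

namespace Cfsg.Agent.ClosedAlt

open Equiv Equiv.Perm

variable {α : Type*}

/-- an involution inverting `x` and preserving its orbits -/
theorem exists_invert (x : Perm α) : ∃ u : Perm α, u * u = 1 ∧ u * x * u = x⁻¹ ∧ ∀ y, x.SameCycle y (u y) := by
  classical
  -- representatives
  let r : α → α := fun y => (Quotient.mk (SameCycle.setoid x) y).out
  have hr : ∀ y, x.SameCycle (r y) y := fun y => Quotient.mk_out (s := SameCycle.setoid x) y
  have hrx : ∀ y z, x.SameCycle y z → r y = r z := by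
    intro y z h
    have : (Quotient.mk (SameCycle.setoid x) y) = Quotient.mk (SameCycle.setoid x) z := Quotient.sound h
    show (Quotient.mk (SameCycle.setoid x) y).out = (Quotient.mk (SameCycle.setoid x) z).out
    rw [this]
  choose k hk using hr
  -- `hk y : (x ^ k y) (r y) = y`
  let f : α → α := fun y => (x ^ (-k y)) (r y)
  have key : ∀ (y : α) (m : ℤ), f ((x ^ m) (r y)) = (x ^ (-m)) (r y) := by
    intro y m
    set w := (x ^ m) (r y) with hw
    have h1 : r w = r y := by
      apply hrx
      have h2 : x.SameCycle (r y) w := ⟨m, rfl⟩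
      exact h2.symm.trans ⟨k y, hk y⟩
    have h2 : (x ^ k w) (r y) = (x ^ m) (r y) := by
      have h4 := hk w
      rw [h1] at h4
      exact h4
    show (x ^ (-k w)) (r w) = (x ^ (-m)) (r y)
    rw [h1]
    have h3 : (x ^ (k w + m)) ((x ^ (-m)) (r y)) = (x ^ (k w + m)) ((x ^ (-k w)) (r y)) := by
      rw [← mul_apply, ← mul_apply, ← zpow_add, ← zpow_add, show k w + m + -m = k w by ring,
        show k w + m + -k w = m by ring]
      exact h2
    exact ((x ^ (k w + m)).injective h3).symm
  have hf : ∀ y, f (f y) = y := by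
    intro y
    show f ((x ^ (-k y)) (r y)) = y
    rw [key, neg_neg, hk]
  let u : Perm α := ⟨f, f, hf, hf⟩
  have huf : ∀ y, u y = f y := fun _ => rfl
  refine ⟨u, ?_, ?_, ?_⟩
  · ext y
    show f (f y) = y
    exact hf y
  · ext y
    show f (x (f y)) = x⁻¹ y
    have h1 : x (f y) = (x ^ (1 - k y)) (r y) := by
      show x ((x ^ (-k y)) (r y)) = _
      rw [← mul_apply, ← zpow_one_add]; rfl
    rw [h1, key]
    have h2 : -(1 - k y) = -1 + k y := by ring
    rw [h2, zpow_add, mul_apply, hk, zpow_neg_one]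
  · intro y
    have h1 : x.SameCycle (r y) y := ⟨k y, hk y⟩
    have h2 : x.SameCycle (r y) (u y) := ⟨-k y, rfl⟩
    exact h1.symm.trans h2

/-- **Every even permutation `x` of 2-power order is a product `u v` of even permutations with `u² = v² = 1`,
`u x u = x⁻¹`.** -/
theorem exists_invert_even [Fintype α] [DecidableEq α] (x : Perm α) (hx : x ∈ alternatingGroup α)
    (h2 : ∃ k : ℕ, x ^ 2 ^ k = 1) :
    ∃ u v : Perm α, u ∈ alternatingGroup α ∧ v ∈ alternatingGroup α ∧ u * u = 1 ∧ v * v = 1 ∧ x = u * v ∧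
      u * x * u = x⁻¹ := by
  -- reduction to the existence of `u`
  suffices h : ∃ u : Perm α, u ∈ alternatingGroup α ∧ u * u = 1 ∧ u * x * u = x⁻¹ by
    obtain ⟨u, hu, hu2, hux⟩ := h
    refine ⟨u, u * x, hu, mul_mem hu hx, hu2, ?_, ?_, hux⟩
    · calc u * x * (u * x) = (u * x * u) * x := by group
        _ = 1 := by rw [hux, inv_mul_cancel]
    · rw [← mul_assoc, hu2, one_mul]
  by_cases hx1 : x = 1
  · exact ⟨1, one_mem _, mul_one 1, by rw [hx1]; simp⟩
  obtain ⟨u, hu2, hux, hus⟩ := exists_invert x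
  by_cases hu : u ∈ alternatingGroup α
  · exact ⟨u, hu, hu2, hux⟩
  obtain ⟨a, ha⟩ : ∃ a, x a ≠ a := by
    by_contra hcon
    push Not at hcon
    exact hx1 (Equiv.ext hcon)
  set c := x.cycleOf a with hc
  have hcyc : c.IsCycle := isCycle_cycleOf x ha
  have hcs : sign c = -1 := by
    rw [hcyc.sign]
    have h3 : c.support.card = orderOf c := hcyc.orderOf.symm
    have h4 : orderOf c ∣ orderOf x := orderOf_cycleOf_dvd_orderOf x a
    obtain ⟨k, hk⟩ := h2
    have h5 : orderOf c ∣ 2 ^ k := h4.trans (orderOf_dvd_of_pow_eq_one hk)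
    obtain ⟨m, -, hm⟩ := (Nat.dvd_prime_pow Nat.prime_two).1 h5
    have hm0 : m ≠ 0 := by
      rintro rfl
      rw [pow_zero, orderOf_eq_one_iff] at hm
      exact hcyc.ne_one hm
    have h6 : Even c.support.card := by
      rw [h3, hm]
      exact (Nat.even_pow' hm0).2 even_two
    rw [h6.neg_one_pow]
  have hsu : sign u = -1 := by
    rcases Int.units_eq_one_or (sign u) with h | h
    · exact absurd (mem_alternatingGroup.2 h) hu
    · exact h
  have hui : u⁻¹ = u := inv_eq_of_mul_eq_one_left hu2
  have hcx : c * x = x * c := by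
    ext y
    rw [mul_apply, mul_apply, hc, cycleOf_apply, cycleOf_apply]
    by_cases h : x.SameCycle a y
    · rw [if_pos h, if_pos (sameCycle_apply_right.2 h)]
    · rw [if_neg h, if_neg (fun h' => h (sameCycle_apply_right.1 h'))]
  have huc : u * c * u = c⁻¹ := by
    rw [eq_inv_iff_mul_eq_one]
    ext y
    rw [mul_apply, mul_apply, mul_apply, one_apply, hc]
    by_cases h : x.SameCycle a y
    · have h1 : x.SameCycle a (x y) := sameCycle_apply_right.2 h
      rw [h.cycleOf_apply, (h1.trans (hus _)).cycleOf_apply]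
      have h2 := congrArg (fun g : Perm α => g (x y)) hux
      simpa using h2
    · rw [cycleOf_apply_of_not_sameCycle h, cycleOf_apply_of_not_sameCycle (fun h' => h (h'.trans (hus y).symm))]
      have h2 := congrArg (fun g : Perm α => g y) hu2
      simpa using h2
  refine ⟨c * u, ?_, ?_, ?_⟩
  · rw [mem_alternatingGroup, map_mul, hcs, hsu]; rfl
  · calc c * u * (c * u) = c * (u * c * u) := by group
      _ = 1 := by rw [huc, mul_inv_cancel]
  · calc c * u * x * (c * u) = c * (u * (x * c) * u) := by group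
      _ = c * (u * (c * x) * u) := by rw [hcx]
      _ = c * ((u * c * u) * (u * u)⁻¹ * (u * x * u)) := by group
      _ = x⁻¹ := by rw [huc, hux, hu2]; group

end Cfsg.Agent.ClosedAlt
end

-- part: ClosedAlt/Alt
section
/-!
# Strongly closed subgroups of the alternating groups (helper52, S1252)

`closed_alternating` : `S` a Sylow 2-subgroup of `Alt(α)`, `A` strongly closed in `S`: `A = 1` or `A = S`.
-/

set_option autoImplicit false

namespace Cfsg.Agent.ClosedAlt

open Equiv Equiv.Perm

set_option linter.unusedSectionVars false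

variable {α : Type*} [Fintype α] [DecidableEq α]

/-- `D A` inside `Sym(α)` -/
def DP (A : Subgroup (alternatingGroup α)) : Set (Perm α) := {x | ∃ y : alternatingGroup α, (y : Perm α) = x ∧ y ∈ D A}

section

variable {S : Sylow 2 (alternatingGroup α)} {A : Subgroup (alternatingGroup α)}

theorem DP_conj {x : Perm α} (hx : x ∈ DP A) {g : Perm α} (hg : g ∈ alternatingGroup α) : g * x * g⁻¹ ∈ DP A := by
  obtain ⟨y, hyx, hy⟩ := hx
  obtain ⟨g', hg'⟩ : ∃ g' : alternatingGroup α, (g' : Perm α) = g := ⟨⟨g, hg⟩, rfl⟩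
  have h1 : g' * y * g'⁻¹ ∈ D A := D_conj hy g'
  exact ⟨g' * y * g'⁻¹, by rw [Subgroup.coe_mul, Subgroup.coe_mul, Subgroup.coe_inv, hyx, hg'], h1⟩

theorem DP_even {x : Perm α} (hx : x ∈ DP A) : x ∈ alternatingGroup α := by
  obtain ⟨y, rfl, -⟩ := hx
  exact y.2

variable (hA : Cfsg.IsStronglyClosed A (S : Subgroup (alternatingGroup α)))
include hA

theorem DP_mul {x y : Perm α} (hx : x ∈ DP A) (hy : y ∈ DP A) {T : Subgroup (Perm α)} (hT : IsPGroup 2 T)
    (hxT : x ∈ T) (hyT : y ∈ T) : x * y ∈ DP A := by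
  obtain ⟨a, rfl, ha⟩ := hx
  obtain ⟨b, rfl, hb⟩ := hy
  have hT' : IsPGroup 2 (T.comap (alternatingGroup α).subtype) :=
    hT.comap_of_injective _ (alternatingGroup α).subtype_injective
  exact ⟨a * b, rfl, mul_mem_D hA ha hb hT' hxT hyT⟩

theorem DP_mul_comm {x y : Perm α} (hx : x ∈ DP A) (hy : y ∈ DP A) (hx2 : x * x = 1) (hy2 : y * y = 1)
    (h : x * y = y * x) : x * y ∈ DP A := by
  refine DP_mul hA hx hy (T := Subgroup.zpowers x ⊔ Subgroup.zpowers y)
    (isPGroup_sup (isPGroup_two hx2) (isPGroup_two hy2) ?_) (Subgroup.mem_sup_left (Subgroup.mem_zpowers x))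
    (Subgroup.mem_sup_right (Subgroup.mem_zpowers y))
  rw [← h, mul_inv_cancel_right]
  exact Subgroup.mem_zpowers x

end

/-- distinct points `a, b, c, d` -/
structure Four (a b c d : α) : Prop where
  ab : a ≠ b
  ac : a ≠ c
  ad : a ≠ d
  bc : b ≠ c
  bd : b ≠ d
  cd : c ≠ d

theorem Four.swap_comm {a b c d : α} (h : Four a b c d) : swap a b * swap c d = swap c d * swap a b := by
  have h1 : swap a b * swap c d * (swap a b)⁻¹ = swap c d := by
    rw [← swap_apply_apply, swap_apply_of_ne_of_ne h.ac.symm h.bc.symm, swap_apply_of_ne_of_ne h.ad.symm h.bd.symm]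
  rw [mul_inv_eq_iff_eq_mul] at h1
  exact h1

theorem Four.sq {a b c d : α} (h : Four a b c d) : (swap a b * swap c d) * (swap a b * swap c d) = 1 := by
  calc (swap a b * swap c d) * (swap a b * swap c d) = (swap a b * swap c d) * (swap c d * swap a b) := by
        rw [h.swap_comm]
    _ = swap a b * (swap c d * swap c d) * swap a b := by group
    _ = 1 := by rw [swap_mul_self, mul_one, swap_mul_self]

theorem Four.even {a b c d : α} (h : Four a b c d) : swap a b * swap c d ∈ alternatingGroup α := by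
  rw [mem_alternatingGroup, map_mul, sign_swap h.ab, sign_swap h.cd]; rfl

theorem Four.inj {a b c d : α} (h : Four a b c d) : Function.Injective ![a, b, c, d] := by
  intro i j hij
  fin_cases i <;> fin_cases j <;>
    first
    | rfl
    | exact (h.ab hij).elim
    | exact (h.ab hij.symm).elim
    | exact (h.ac hij).elim
    | exact (h.ac hij.symm).elim
    | exact (h.ad hij).elim
    | exact (h.ad hij.symm).elim
    | exact (h.bc hij).elim
    | exact (h.bc hij.symm).elim
    | exact (h.bd hij).elim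
    | exact (h.bd hij.symm).elim
    | exact (h.cd hij).elim
    | exact (h.cd hij.symm).elim

/-- a permutation carrying one quadruple to another -/
theorem exists_perm {a b c d a' b' c' d' : α} (h : Four a b c d) (h' : Four a' b' c' d') :
    ∃ g : Perm α, g a = a' ∧ g b = b' ∧ g c = c' ∧ g d = d' := by
  obtain ⟨σ, hσ⟩ := Equiv.Perm.exists_extending_pair _ _ h.inj h'.inj
  exact ⟨σ, hσ 0, hσ 1, hσ 2, hσ 3⟩

theorem conj_pair (g : Perm α) (a b c d : α) :
    g * (swap a b * swap c d) * g⁻¹ = swap (g a) (g b) * swap (g c) (g d) := by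
  rw [swap_apply_apply, swap_apply_apply]; group

/-- all double transpositions are conjugate -/
theorem DP_all {A : Subgroup (alternatingGroup α)} {a b c d a' b' c' d' : α} (h : Four a b c d)
    (h' : Four a' b' c' d') (hx : swap a b * swap c d ∈ DP A) : swap a' b' * swap c' d' ∈ DP A := by
  obtain ⟨g, rfl, rfl, rfl, rfl⟩ := exists_perm h h'
  by_cases hg : g ∈ alternatingGroup α
  · rw [← conj_pair]
    exact DP_conj hx hg
  · have hs : sign g = -1 := by
      rcases Int.units_eq_one_or (sign g) with h1 | h1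
      · exact absurd (mem_alternatingGroup.2 h1) hg
      · exact h1
    have hg2 : g * swap a b ∈ alternatingGroup α := by
      rw [mem_alternatingGroup, map_mul, hs, sign_swap h.ab]; rfl
    have h3 := DP_conj hx hg2
    have h4 : g * swap a b * (swap a b * swap c d) * (g * swap a b)⁻¹ = g * (swap a b * swap c d) * g⁻¹ := by
      calc g * swap a b * (swap a b * swap c d) * (g * swap a b)⁻¹ =
            g * (swap a b * swap a b) * (swap c d * (swap a b)⁻¹) * g⁻¹ := by group
        _ = g * (swap a b * swap c d) * g⁻¹ := by rw [swap_mul_self, swap_inv, ← h.swap_comm]; group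
    rw [h4, conj_pair] at h3
    exact h3

/-- splitting off a double transposition from an even involution -/
theorem exists_split {z : Perm α} (hz : z ∈ alternatingGroup α) (hzz : z * z = 1) (h1 : z ≠ 1) :
    ∃ (a b c d : α) (w : Perm α), Four a b c d ∧ z = swap a b * swap c d * w ∧ w * w = 1 ∧
      (swap a b * swap c d) * w = w * (swap a b * swap c d) ∧ w a = a ∧ w b = b ∧ w c = c ∧ w d = d ∧
      w ∈ alternatingGroup α ∧ w.support.card < z.support.card := by
  have hzz' : ∀ x, z (z x) = x := fun x => by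
    rw [← mul_apply, hzz, one_apply]
  obtain ⟨a, ha⟩ : ∃ a, z a ≠ a := by
    by_contra hcon
    push Not at hcon
    exact h1 (Equiv.ext hcon)
  obtain ⟨c, hc, hca, hcb⟩ : ∃ c, z c ≠ c ∧ c ≠ a ∧ c ≠ z a := by
    by_contra hcon
    push Not at hcon
    have h2 : z = swap a (z a) := by
      ext x
      by_cases hxa : x = a
      · rw [hxa, swap_apply_left]
      by_cases hxb : x = z a
      · rw [hxb, swap_apply_right, hzz']
      rw [swap_apply_of_ne_of_ne hxa hxb]
      by_contra hx
      exact hxb (hcon x hx hxa)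
    rw [mem_alternatingGroup, h2, sign_swap ha.symm] at hz
    exact absurd hz (by decide)
  have F : Four a (z a) c (z c) := by
    refine ⟨ha.symm, hca.symm, ?_, hcb.symm, ?_, hc.symm⟩
    · intro h
      apply hcb
      rw [h, hzz']
    · intro h
      exact hca (z.injective h).symm
  have hcomm : z * (swap a (z a) * swap c (z c)) = (swap a (z a) * swap c (z c)) * z := by
    have h2 := conj_pair z a (z a) c (z c)
    rw [hzz', hzz', swap_comm (z a) a, swap_comm (z c) c, mul_inv_eq_iff_eq_mul] at h2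
    exact h2
  have hsq := F.sq
  set t := swap a (z a) * swap c (z c) with ht
  have hw2 : (t * z) * (t * z) = 1 := by
    calc (t * z) * (t * z) = t * (z * t) * z := by group
      _ = t * (t * z) * z := by rw [hcomm]
      _ = (t * t) * (z * z) := by group
      _ = 1 := by rw [hsq, hzz, one_mul]
  have ta : t a = z a := by
    rw [ht, mul_apply, swap_apply_of_ne_of_ne F.ac F.ad, swap_apply_left]
  have tb : t (z a) = a := by
    rw [ht, mul_apply, swap_apply_of_ne_of_ne F.bc F.bd, swap_apply_right]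
  have tc : t c = z c := by
    rw [ht, mul_apply, swap_apply_left, swap_apply_of_ne_of_ne F.ad.symm F.bd.symm]
  have td : t (z c) = c := by
    rw [ht, mul_apply, swap_apply_right, swap_apply_of_ne_of_ne F.ac.symm F.bc.symm]
  refine ⟨a, z a, c, z c, t * z, F, ?_, hw2, ?_, ?_, ?_, ?_, ?_, ?_, ?_⟩
  · rw [← mul_assoc, hsq, one_mul]
  · rw [mul_assoc t z t, hcomm]
  · rw [mul_apply, tb]
  · rw [mul_apply, hzz', ta]
  · rw [mul_apply, td]
  · rw [mul_apply, hzz', tc]
  · exact mul_mem F.even hz
  · apply Finset.card_lt_card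
    rw [Finset.ssubset_iff_subset_ne]
    constructor
    · intro x hx
      rw [mem_support] at hx ⊢
      intro hzx
      apply hx
      have hxa : x ≠ a := by rintro rfl; exact ha hzx
      have hxb : x ≠ z a := by rintro rfl; rw [hzz'] at hzx; exact ha hzx.symm
      have hxc : x ≠ c := by rintro rfl; exact hc hzx
      have hxd : x ≠ z c := by rintro rfl; rw [hzz'] at hzx; exact hc hzx.symm
      rw [mul_apply, hzx, ht, mul_apply, swap_apply_of_ne_of_ne hxc hxd, swap_apply_of_ne_of_ne hxa hxb]
    · intro h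
      have h3 : a ∈ (t * z).support := by rw [h, mem_support]; exact ha
      rw [mem_support, mul_apply, tb] at h3
      exact h3 rfl

section

variable {S : Sylow 2 (alternatingGroup α)} {A : Subgroup (alternatingGroup α)}
  (hA : Cfsg.IsStronglyClosed A (S : Subgroup (alternatingGroup α)))
include hA

/-- from one involution to a double transposition -/
theorem exists_pair_mem {z : Perm α} (hz : z ∈ DP A) (hzz : z * z = 1) (h1 : z ≠ 1) :
    ∃ a b c d : α, Four a b c d ∧ swap a b * swap c d ∈ DP A := by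
  obtain ⟨a, b, c, d, w, F, hzw, hww, htw, wa, wb, wc, wd, -, -⟩ := exists_split (DP_even hz) hzz h1
  -- `h : b → d → c → b`
  have hcw : ∀ x y : α, w x = x → w y = y → swap x y * w = w * swap x y := by
    intro x y hx hy
    have h2 : w * swap x y * w⁻¹ = swap x y := by rw [← swap_apply_apply, hx, hy]
    rw [mul_inv_eq_iff_eq_mul] at h2
    exact h2.symm
  have heven : swap b c * swap b d ∈ alternatingGroup α := by
    rw [mem_alternatingGroup, map_mul, sign_swap F.bc, sign_swap F.bd]; rfl
  have hconj : (swap b c * swap b d) * z * (swap b c * swap b d)⁻¹ = swap a d * swap b c * w := by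
    have e1 : (swap b c * swap b d) a = a := by
      rw [mul_apply, swap_apply_of_ne_of_ne F.ab F.ad, swap_apply_of_ne_of_ne F.ab F.ac]
    have e2 : (swap b c * swap b d) b = d := by
      rw [mul_apply, swap_apply_left, swap_apply_of_ne_of_ne F.bd.symm F.cd.symm]
    have e3 : (swap b c * swap b d) c = b := by
      rw [mul_apply, swap_apply_of_ne_of_ne F.bc.symm F.cd, swap_apply_right]
    have e4 : (swap b c * swap b d) d = c := by
      rw [mul_apply, swap_apply_right, swap_apply_left]
    have e5 := conj_pair (swap b c * swap b d) a b c d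
    rw [e1, e2, e3, e4] at e5
    have e6 : (swap b c * swap b d) * w = w * (swap b c * swap b d) := by
      rw [mul_assoc, hcw b d wb wd, ← mul_assoc, hcw b c wb wc, mul_assoc]
    calc (swap b c * swap b d) * z * (swap b c * swap b d)⁻¹ =
          ((swap b c * swap b d) * (swap a b * swap c d) * (swap b c * swap b d)⁻¹) *
            ((swap b c * swap b d) * w * (swap b c * swap b d)⁻¹) := by rw [hzw]; group
      _ = swap a d * swap b c * w := by rw [e5, e6, mul_inv_cancel_right]
  have hz' := DP_conj hz heven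
  rw [hconj] at hz'
  have F' : Four a c b d := ⟨F.ac, F.ab, F.ad, F.bc.symm, F.cd, F.bd⟩
  have F'' : Four a d b c := ⟨F.ad, F.ab, F.ac, F.bd.symm, F.cd.symm, F.bc⟩
  -- `(a b)(c d) (a d)(b c) = (a c)(b d)`
  have hprod : (swap a b * swap c d) * (swap a d * swap b c) = swap a c * swap b d := by
    ext x
    by_cases hxa : x = a
    · subst hxa
      simp only [mul_apply]
      rw [swap_apply_of_ne_of_ne F.ab F.ac, swap_apply_left, swap_apply_right, swap_apply_of_ne_of_ne F.ac.symm F.bc.symm,
        swap_apply_of_ne_of_ne F.ab F.ad, swap_apply_left]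
    by_cases hxb : x = b
    · subst hxb
      simp only [mul_apply]
      rw [swap_apply_left, swap_apply_of_ne_of_ne F.ac.symm F.cd, swap_apply_left,
        swap_apply_of_ne_of_ne F.ad.symm F.bd.symm, swap_apply_left, swap_apply_of_ne_of_ne F.ad.symm F.cd.symm]
    by_cases hxc : x = c
    · subst hxc
      simp only [mul_apply]
      rw [swap_apply_right, swap_apply_of_ne_of_ne F.ab.symm F.bd, swap_apply_of_ne_of_ne F.bc F.bd,
        swap_apply_right, swap_apply_of_ne_of_ne F.bc.symm F.cd, swap_apply_right]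
    by_cases hxd : x = d
    · subst hxd
      simp only [mul_apply]
      rw [swap_apply_of_ne_of_ne F.bd.symm F.cd.symm, swap_apply_right, swap_apply_of_ne_of_ne F.ac F.ad,
        swap_apply_left, swap_apply_right, swap_apply_of_ne_of_ne F.ab.symm F.bc]
    simp only [mul_apply]
    rw [swap_apply_of_ne_of_ne hxb hxc, swap_apply_of_ne_of_ne hxa hxd, swap_apply_of_ne_of_ne hxc hxd,
      swap_apply_of_ne_of_ne hxa hxb, swap_apply_of_ne_of_ne hxb hxd, swap_apply_of_ne_of_ne hxa hxc]
  have htw' : (swap a d * swap b c) * w = w * (swap a d * swap b c) := by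
    rw [mul_assoc, hcw b c wb wc, ← mul_assoc, hcw a d wa wd, mul_assoc]
  have hzz' : z * (swap a d * swap b c * w) = swap a c * swap b d := by
    calc z * (swap a d * swap b c * w) = (swap a b * swap c d) * (w * (swap a d * swap b c)) * w := by
          rw [hzw]; group
      _ = ((swap a b * swap c d) * (swap a d * swap b c)) * (w * w) := by rw [← htw']; group
      _ = swap a c * swap b d := by rw [hprod, hww, mul_one]
  have hz'2 : (swap a d * swap b c * w) * (swap a d * swap b c * w) = 1 := by
    rw [← hconj]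
    calc _ = (swap b c * swap b d) * (z * z) * (swap b c * swap b d)⁻¹ := by group
      _ = 1 := by rw [hzz, mul_one, mul_inv_cancel]
  refine ⟨a, c, b, d, F', ?_⟩
  rw [← hzz']
  refine DP_mul_comm hA hz hz' hzz hz'2 ?_
  have h3 : (z * (swap a d * swap b c * w)) * (z * (swap a d * swap b c * w)) = 1 := by
    rw [hzz']; exact F'.sq
  calc z * (swap a d * swap b c * w) = z * ((z * (swap a d * swap b c * w)) * (z * (swap a d * swap b c * w))) *
        (swap a d * swap b c * w) := by
          have h4 : ∀ x y : Perm α, x * x = 1 → y * y = 1 → (x * y) * (x * y) = 1 →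
              x * y = x * ((x * y) * (x * y)) * y := by
            intro x y _ _ h5
            rw [h5, mul_one]
          exact h4 _ _ hzz hz'2 h3
    _ = (z * z) * ((swap a d * swap b c * w) * z) * ((swap a d * swap b c * w) * (swap a d * swap b c * w)) := by
          group
    _ = swap a d * swap b c * w * z := by rw [hzz, hz'2, one_mul, mul_one]

/-- all even involutions -/
theorem DP_involution {a b c d : α} (F : Four a b c d) (hx : swap a b * swap c d ∈ DP A) :
    ∀ (m : ℕ) (z : Perm α), z.support.card ≤ m → z ∈ alternatingGroup α → z * z = 1 → z ∈ DP A := by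
  intro m
  induction m with
  | zero =>
    intro z hm _ _
    have h1 : z = 1 := by
      rw [← support_eq_empty_iff, ← Finset.card_eq_zero]; omega
    rw [h1]
    exact ⟨1, rfl, one_mem_D⟩
  | succ m ih =>
    intro z hm hz hzz
    by_cases h1 : z = 1
    · rw [h1]
      exact ⟨1, rfl, one_mem_D⟩
    obtain ⟨a', b', c', d', w, F', hzw, hww, htw, wa, wb, wc, wd, hwe, hcard⟩ := exists_split hz hzz h1
    rw [hzw]
    exact DP_mul_comm hA (DP_all F F' hx) (ih w (by omega) hwe hww) F'.sq hww htw

end

/-- **Strongly closed subgroups of alternating groups.** -/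
theorem closed_alternating (S : Sylow 2 (alternatingGroup α)) (A : Subgroup (alternatingGroup α))
    (hA : Cfsg.IsStronglyClosed A (S : Subgroup (alternatingGroup α))) :
    A = ⊥ ∨ A = (S : Subgroup (alternatingGroup α)) := by
  by_cases h0 : A = ⊥
  · exact Or.inl h0
  right
  -- an involution of `A`
  obtain ⟨y, hy, hy1⟩ : ∃ y ∈ A, y ≠ 1 := by
    by_contra hcon
    push Not at hcon
    exact h0 (A.eq_bot_iff_forall.2 hcon)
  obtain ⟨z, hzA, hz1, hzz⟩ : ∃ z ∈ A, z ≠ 1 ∧ z * z = 1 := by
    have h2 : IsPGroup 2 A := S.2.to_le hA.1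
    obtain ⟨k, hk⟩ := h2 ⟨y, hy⟩
    have hk' : (y : alternatingGroup α) ^ 2 ^ k = 1 := congrArg Subtype.val hk
    classical
    have hex : ∃ k, (y : alternatingGroup α) ^ 2 ^ k = 1 := ⟨k, hk'⟩
    set m := Nat.find hex with hm
    have hm1 := Nat.find_spec hex
    rw [← hm] at hm1
    have hm0 : m ≠ 0 := by
      intro h
      rw [h, pow_zero, pow_one] at hm1
      exact hy1 hm1
    have hm2 : (y : alternatingGroup α) ^ 2 ^ (m - 1) ≠ 1 := Nat.find_min hex (by omega)
    refine ⟨_, A.pow_mem hy (2 ^ (m - 1)), hm2, ?_⟩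
    rw [← pow_add, ← two_mul, ← pow_succ', show m - 1 + 1 = m by omega]
    exact hm1
  have hzD : (z : Perm α) ∈ DP A := ⟨z, rfl, le_D hzA⟩
  obtain ⟨a, b, c, d, F, hF⟩ := exists_pair_mem hA hzD (congrArg Subtype.val hzz) (fun h => hz1 (Subtype.ext h))
  apply le_antisymm hA.1
  intro x hx
  obtain ⟨k, hk⟩ := S.2 ⟨x, hx⟩
  have hk' : (x : Perm α) ^ 2 ^ k = 1 := by
    have h3 := congrArg (fun t : (S : Subgroup (alternatingGroup α)) => ((t : alternatingGroup α) : Perm α)) hk
    simpa using h3
  obtain ⟨u, v, hu, hv, huu, hvv, hxuv, huxu⟩ := exists_invert_even (x : Perm α) x.2 ⟨k, hk'⟩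
  have huD := DP_involution hA F hF _ u le_rfl hu huu
  have hvD := DP_involution hA F hF _ v le_rfl hv hvv
  have hui : u⁻¹ = u := inv_eq_of_mul_eq_one_left huu
  have hxp : IsPGroup 2 (Subgroup.zpowers (x : Perm α)) := by
    rintro ⟨w, hw⟩
    obtain ⟨i, rfl⟩ := Subgroup.mem_zpowers_iff.1 hw
    refine ⟨k, Subtype.ext ?_⟩
    show ((x : Perm α) ^ i) ^ 2 ^ k = 1
    rw [← zpow_natCast, ← zpow_mul, mul_comm, zpow_mul, zpow_natCast, hk', one_zpow]
  have hT := isPGroup_sup hxp (isPGroup_two huu) (by
    rw [hui, huxu]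
    exact inv_mem (Subgroup.mem_zpowers _))
  have hxD : u * v ∈ DP A := by
    refine DP_mul hA huD hvD hT (Subgroup.mem_sup_right (Subgroup.mem_zpowers u)) ?_
    have h4 : v = u * x := by rw [hxuv, ← mul_assoc, huu, one_mul]
    rw [h4]
    exact mul_mem (Subgroup.mem_sup_right (Subgroup.mem_zpowers u)) (Subgroup.mem_sup_left (Subgroup.mem_zpowers _))
  rw [← hxuv] at hxD
  obtain ⟨y', hy', hyD⟩ := hxD
  have h5 : y' = x := Subtype.ext hy'
  rw [h5] at hyD
  exact mem_of_D hA hyD hx

end Cfsg.Agent.ClosedAlt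
end
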